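import Cfsg.Agent.Lib.Char.TwoDeg.CaseB

/-!
# Fully ramified sections under a cyclic Frobenius action: the congruence `e ≡ ±1`
-/

set_option autoImplicit false
set_option linter.unusedSectionVars false
set_option linter.style.haveILetI false

namespace Cfsg.Agent.Lib.Char.TwoDeg.FullyRamified

open Cfsg Module
open Cfsg.Agent.Lib.Char.Basic Cfsg.Agent.Lib.Char.Ortho Cfsg.Agent.Lib.Char.Complete
open Cfsg.Agent.Lib.Char.Conj Cfsg.Agent.Lib.Char.Clifford Cfsg.Agent.Lib.Char.Induced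
open Cfsg.Agent.Lib.Char.TwoDeg.FrobNorm Cfsg.Agent.Lib.Char.TwoDeg.CaseB
open scoped ComplexConjugate

universe u

/-- The arithmetic. -/
theorem arith {f : ℕ} (hf : 2 ≤ f) (a : Fin f → ℕ) (e : ℕ) (h1 : ∑ i, a i = e)
    (h2 : f * ∑ i, (a i) ^ 2 + 1 = e ^ 2 + f) : (f : ℤ) ∣ (e : ℤ) - 1 ∨ (f : ℤ) ∣ (e : ℤ) + 1 := by
  set q : ℤ := ((e / f : ℕ) : ℤ) with hq
  set r : ℤ := ((e % f : ℕ) : ℤ) with hr
  have hfpos : (0 : ℤ) < f := by exact_mod_cast (by omega : 0 < f)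
  have he : (e : ℤ) = f * q + r := by
    rw [hq, hr]
    exact_mod_cast (Nat.div_add_mod e f).symm
  have hr0 : 0 ≤ r := by positivity
  have hrf : r < f := by
    rw [hr]
    exact_mod_cast Nat.mod_lt e (by omega)
  let c : Fin f → ℤ := fun i => (a i : ℤ) - q
  have hc1 : ∑ i, c i = r := by
    simp only [c, Finset.sum_sub_distrib, Finset.sum_const, Finset.card_univ, Fintype.card_fin,
      nsmul_eq_mul]
    have : ∑ i, (a i : ℤ) = e := by exact_mod_cast h1
    rw [this, he]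
    ring
  have hc2 : ∑ i, (c i) ^ 2 = ∑ i, ((a i : ℤ)) ^ 2 - 2 * q * e + f * q ^ 2 := by
    have h3 : ∀ i, (c i) ^ 2 = (a i : ℤ) ^ 2 - 2 * q * (a i : ℤ) + q ^ 2 := by
      intro i
      simp only [c]
      ring
    simp_rw [h3]
    rw [Finset.sum_add_distrib, Finset.sum_sub_distrib, ← Finset.mul_sum]
    simp only [Finset.sum_const, Finset.card_univ, Fintype.card_fin, nsmul_eq_mul]
    have : ∑ i, (a i : ℤ) = e := by exact_mod_cast h1
    rw [this]
  have h2' : (f : ℤ) * ∑ i, ((a i : ℤ)) ^ 2 + 1 = (e : ℤ) ^ 2 + f := by exact_mod_cast h2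
  have hc3 : (f : ℤ) * ∑ i, (c i) ^ 2 + 1 = r ^ 2 + f := by
    rw [hc2]
    have : (f : ℤ) * (∑ i, ((a i : ℤ)) ^ 2 - 2 * q * e + f * q ^ 2) + 1 =
        ((f : ℤ) * ∑ i, ((a i : ℤ)) ^ 2 + 1) - 2 * f * q * e + f ^ 2 * q ^ 2 := by ring
    rw [this, h2', he]
    ring
  have hge : r ≤ ∑ i, (c i) ^ 2 := by
    rw [← hc1]
    apply Finset.sum_le_sum
    intro i _
    have h3 : c i ≤ 0 ∨ 1 ≤ c i := by omega
    rcases h3 with h3 | h3 <;> nlinarith
  have hmain : (f : ℤ) * r + 1 ≤ r ^ 2 + f := by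
    rw [← hc3]
    have := mul_le_mul_of_nonneg_left hge hfpos.le
    linarith
  -- the remainder is `0`, `1` or `f - 1`.
  have hcases : r = 0 ∨ r = 1 ∨ r = f - 1 := by
    by_cases h0 : r = 0
    · exact Or.inl h0
    by_cases h3 : r = 1
    · exact Or.inr (Or.inl h3)
    right; right
    have h4 : 2 ≤ r := by omega
    by_contra h5
    have h6 : r ≤ f - 2 := by omega
    nlinarith
  rcases hcases with h0 | h0 | h0
  · exfalso
    rw [h0] at hc3
    have h3 : (f : ℤ) ∣ 1 := by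
      refine ⟨1 - ∑ i, (c i) ^ 2, ?_⟩
      linarith
    have h4 := Int.le_of_dvd (by norm_num) h3
    have h5 : (2 : ℤ) ≤ f := by exact_mod_cast hf
    omega
  · left
    exact ⟨q, by rw [he, h0]; ring⟩
  · right
    exact ⟨q + 1, by rw [he, h0]; ring⟩

section Main

variable {Γ : Type u} [Group Γ] [Fintype Γ] (G N : Subgroup Γ) [hG : G.Normal] [hN : N.Normal]
  [Fintype G] [Fintype N]

theorem main (hNG : N ≤ G) (hGlt : G ≠ ⊤) (hcyc : IsCyclic (Γ ⧸ G))
    (hfrob : ∀ x : Γ, x ∉ G → ∀ g : Γ, g ∈ G → x * g * x⁻¹ * g⁻¹ ∈ N → g ∈ N)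
    (θ : IrrCharacter N)
    (hinv : ∀ (x : Γ) (n : N), (θ : N → ℂ) ⟨x * n * x⁻¹, hN.conj_mem n n.2 x⟩ = (θ : N → ℂ) n)
    (χ : IrrCharacter G) (e : ℕ)
    (hram : indFun (N.subgroupOf G) (fun n : N.subgroupOf G => (θ : N → ℂ) ⟨(n : G), n.2⟩) =
      fun g => (e : ℂ) * (χ : G → ℂ) g) :
    (G.index : ℤ) ∣ (e : ℤ) - 1 ∨ (G.index : ℤ) ∣ (e : ℤ) + 1 := by
  classical
  let N₁ : Subgroup G := N.subgroupOf G
  have hN₁ : N₁.Normal := Subgroup.normal_subgroupOf
  letI : Fintype N₁ := Fintype.ofFinite _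
  let e₁ : N₁ ≃* N := Subgroup.subgroupOfEquivOfLe hNG
  let θ₁ : N₁ → ℂ := (θ : N → ℂ) ∘ e₁
  have hθ₁ : IsIrrCharacter N₁ θ₁ := isIrrCharacter_comp_mulEquiv e₁ θ.2
  have hind : indFun N₁ θ₁ = fun g => (e : ℂ) * (χ : G → ℂ) g := hram
  have hinv₁ : ∀ c : G, conjOn hN₁ c θ₁ = θ₁ := by
    intro c
    funext n
    exact hinv (c : Γ) (e₁ n)
  have hχcf := isClassFunction_of_isIrrCharacter χ.2
  have hinner : classInner (indFun N₁ θ₁) (χ : G → ℂ) = (e : ℂ) := by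
    rw [hind]
    have : (fun g => (e : ℂ) * (χ : G → ℂ) g) = (e : ℂ) • (χ : G → ℂ) := rfl
    rw [this, classInner_smul_left, classInner_self_of_isIrr χ.2, mul_one]
  have he0 : e ≠ 0 := by
    intro h0
    have h1 := congrFun hind 1
    rw [indFun_one, h0] at h1
    simp only [Nat.cast_zero, zero_mul] at h1
    have h2 : (N₁.index : ℂ) ≠ 0 := by
      exact_mod_cast (Subgroup.index_ne_zero_of_finite (H := N₁))
    exact (mul_ne_zero h2 (irr_one_ne_zero hθ₁)) h1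
  have hcon : classInner (fun n : N₁ => (χ : G → ℂ) n) θ₁ ≠ 0 := by
    intro h0
    rw [classInner_indFun_left N₁ _ _ hχcf, ← classInner_conj, h0, map_zero] at hinner
    exact he0 (by exact_mod_cast hinner.symm)
  obtain ⟨w, -, hw⟩ := restrict_eq_smul hN₁ hθ₁ hinv₁ χ.2 hcon
  have hwe : w = e := by
    have h1 := hinner
    rw [classInner_indFun_left N₁ _ _ hχcf, hw, classInner_smul_right,
      classInner_self_of_isIrr hθ₁, mul_one, Complex.conj_natCast] at h1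
    exact_mod_cast h1
  subst hwe
  -- `χ` is invariant under `Γ`
  have hindinv : ∀ (c : Γ) (g : G), indFun N₁ θ₁ ⟨c * g * c⁻¹, hG.conj_mem g g.2 c⟩ = indFun N₁ θ₁ g := by
    intro c g
    rw [indFun_apply, indFun_apply]
    congr 1
    let ce : G ≃ G := (MulAut.conjNormal c : G ≃* G).toEquiv
    have hce : ∀ u : G, ((ce u : G) : Γ) = c * u * c⁻¹ := fun u => MulAut.conjNormal_apply c u
    rw [← Equiv.sum_comp ce]
    refine Finset.sum_congr rfl fun u _ => ?_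
    have h1 : ∀ z : G, (z ∈ N₁ ↔ (⟨c * z * c⁻¹, hG.conj_mem z z.2 c⟩ : G) ∈ N₁) := by
      intro z
      constructor
      · intro hz
        exact hN.conj_mem z hz c
      · intro hz
        have hz' : c * (z : Γ) * c⁻¹ ∈ N := hz
        have h2 := hN.conj_mem _ hz' c⁻¹
        have h3 : c⁻¹ * (c * (z : Γ) * c⁻¹) * c⁻¹⁻¹ = z := by group
        rw [h3] at h2
        exact h2
    set z : G := u⁻¹ * g * u with hz
    have hzeq : (ce u)⁻¹ * (⟨c * g * c⁻¹, hG.conj_mem g g.2 c⟩ : G) * ce u =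
        ⟨c * z * c⁻¹, hG.conj_mem z z.2 c⟩ := by
      apply Subtype.ext
      simp only [Subgroup.coe_mul, Subgroup.coe_inv, hce, hz]
      group
    rw [hzeq]
    by_cases hzN : z ∈ N₁
    · rw [extendByZero_of_mem _ _ ((h1 z).mp hzN), extendByZero_of_mem _ _ hzN]
      exact hinv c (e₁ ⟨z, hzN⟩)
    · rw [extendByZero_of_not_mem _ _ (fun h => hzN ((h1 z).mpr h)), extendByZero_of_not_mem _ _ hzN]
  have hχinv : ∀ c : Γ, conjOn hG c (χ : G → ℂ) = χ := by
    intro c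
    funext g
    have h1 := hindinv c g
    rw [hind] at h1
    have he' : (w : ℂ) ≠ 0 := by exact_mod_cast he0
    exact mul_left_cancel₀ he' h1
  obtain ⟨χh, hχh, hχhG⟩ := Cfsg.Agent.Lib.Char.Extend.exists_irr_ext_of_cyclic hG χ.2 hχinv hcyc
  have hres : (fun n : N => χh n) = (w : ℂ) • (θ : N → ℂ) := by
    funext n
    have h1 := congrFun hw (e₁.symm n)
    have h2 : χh (n : Γ) = (χ : G → ℂ) ⟨n, hNG n.2⟩ := hχhG ⟨n, hNG n.2⟩
    rw [h2]
    have h3 : (((e₁.symm n : N₁) : G)) = ⟨n, hNG n.2⟩ := by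
      apply Subtype.ext
      exact congrArg (fun y : N => (y : Γ)) (e₁.apply_symm_apply n)
    simp only [h3, Pi.smul_apply, smul_eq_mul, θ₁, Function.comp, MulEquiv.apply_symm_apply] at h1
    simpa using h1
  have hinvθ : ∀ c : Γ, conjOn hN c (θ : N → ℂ) = θ := by
    intro c
    funext n
    exact hinv c n
  have hχhc := isCharacter_of_isIrrCharacter hχh
  obtain ⟨a, ha1, ha2⟩ := frob_data G N hNG hGlt hcyc hfrob θ.2 hinvθ hχhc hres
  rw [classInner_self_of_isIrr hχh, mul_one] at ha2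
  have hKres : (fun k : G => χh k) = (χ : G → ℂ) := funext hχhG
  rw [hKres, classInner_self_of_isIrr χ.2] at ha2
  have hnat : G.index * ∑ i, (a i) ^ 2 + 1 = w ^ 2 + G.index := by
    have : ((G.index * ∑ i, (a i) ^ 2 + 1 : ℕ) : ℂ) = ((w ^ 2 + G.index : ℕ) : ℂ) := by
      push_cast
      push_cast at ha2
      linear_combination ha2
    exact_mod_cast this
  have hf2 : 2 ≤ G.index := by
    have h1 : G.index ≠ 0 := Subgroup.index_ne_zero_of_finite
    have h2 : G.index ≠ 1 := fun h => hGlt (Subgroup.index_eq_one.mp h)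
    omega
  exact arith hf2 a w ha1 hnat

end Main

end Cfsg.Agent.Lib.Char.TwoDeg.FullyRamified
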